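import Mathlib
import Cfsg.Agent.SuzL.Data5

/-! The normaliser of a Sylow 5-subgroup of `Suz`. -/

set_option autoImplicit false
set_option maxRecDepth 100000
set_option synthInstance.maxSize 100000

namespace Cfsg.Agent.SuzL

open Cfsg.Agent.Spor Cfsg.Agent.Rec Cfsg.Agent.SuzT Subgroup

universe u

variable {G : Type u} [Group G]

theorem SM.facts5 (σ : SM G) : ∃ a b s S r R t, (W5.take 2).map σ.w = [a, b] ∧ σ.C.RepL c5 [a, b, s, S, r, R, t] ∧
    (∀ c, c * a = a * c → c * b = b * c → c ∈ clos [a, b]) ∧ ¬ IsConj a (a * (a * b)) := by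
  have h := σ.rep.words W5 W5_ok
  have t0 := σ.tabW (S5_ok 0 (by norm_num))
  exact ⟨_, _, _, _, _, _, _, rfl, h, fun c h0 h1 => σ.search (fun j hj => σ.tabW (S5_ok j hj))
    (fun j hj => σ.tabW (S5_ok j hj)) ((h.take 2).gen P5_ok).1 src5 s5 fun j hj => by
      interval_cases j
      exacts [h0, h1], σ.not_isConj t0 (t0.mul (t0.mul (σ.tabW (S5_ok 1 (by norm_num))))) (by decide +kernel)⟩

theorem model5 : ∃ s : Multiplicative (ZMod 4) × Equiv.Perm (Fin 3), ∃ r t,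
    (∀ w ∈ rel5, evalW (nth 1 [s, s⁻¹, r, r⁻¹, t]) w = 1) ∧
    ∀ y, ∃ (i : Fin 4) (j : Fin 3) (k : Fin 2), y = s ^ (i : ℕ) * r ^ (j : ℕ) * t ^ (k : ℕ) :=
  ⟨(Multiplicative.ofAdd 1, 1), (1, Equiv.swap 0 1 * Equiv.swap 1 2), (1, Equiv.swap 0 1), by decide +kernel⟩

theorem five [Finite G] (h : Cfsg.Spor.IsoSuz G) (P : Sylow 5 G) :
    (∃ A B : Subgroup G, Nat.card A = 5 ∧ Nat.card B = 5 ∧ (∀ g : G, A.map (MulAut.conj g).toMonoidHom ≠ B) ∧
      ∀ C : Subgroup G, Nat.card C = 5 → ∃ g : G, C.map (MulAut.conj g).toMonoidHom = A ∨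
        C.map (MulAut.conj g).toMonoidHom = B) ∧ Nat.card (P : Subgroup G) = 25 ∧
    Nat.card (normalizer ((P : Subgroup G) : Set G)) = 600 ∧
    Nonempty (normalizer ((P : Subgroup G) : Set G) ⧸ (P : Subgroup G).subgroupOf (normalizer ((P : Subgroup G) : Set G)) ≃*
      Multiplicative (ZMod 4) × Equiv.Perm (Fin 3)) := by
  have : Fact (Nat.Prime 5) := ⟨by norm_num⟩
  obtain ⟨σ₀⟩ := exists_sm h
  obtain ⟨_, _, _, _, _, _, _, e₀, h₀, -⟩ := σ₀.facts5
  obtain ⟨σ, h1⟩ := σ₀.exists_le P.not_dvd_index (W := W5.take 2) (by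
    rw [e₀]; exact IsPGroup.of_card (n := 2) ((h₀.take 2).gen P5_ok).2)
  obtain ⟨a, b, s, S, r, R, t, e, h2, h3, h4⟩ := σ.facts5
  obtain ⟨p1, p2 : Nat.card (clos [a, b]) = 25⟩ := (h2.take 2).gen P5_ok
  obtain ⟨k1, k2 : Nat.card (clos [s, S, r, R, t]) = 24⟩ := (h2.drop 2).gen K5_ok
  have hL : σ.C.ListsL _ [clos [a, b], clos [s, S, r, R, t], cls [s, S, r, R, t] a, cls [s, S, r, R, t] (a * (a * b))] :=
    p1.cons (k1.cons (((h2.drop 2).orb (h2.nth 0) T5_ok).1.cons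
      (((h2.drop 2).orb (h2.term (a * (a * b)) (by decide +kernel)) U5_ok).1.cons Cod.listsL_nil)))
  have hS := isSylIn_of_card (p := 5) le_top (k := 2) (m := 17933819904) p2 (card_top.trans σ.card) (by norm_num)
  have hK : clos [s, S, r, R, t] ≤ normalizer (clos [a, b] : Set G) := Syl.mem_normalizer_clos (by
    simp only [List.forall_mem_cons, List.not_mem_nil, false_imp_iff, implies_true, and_true]
    exact hL.decide h2 (by decide +kernel))
  rw [e] at h1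
  rw [hS.eq_of_le P.isPGroup' le_top h1]
  have hs : Sat rel5 [s, S, r, R, t] := (h2.drop 2).sat (by decide +kernel)
  have hm : ∀ x ∈ [s, S, r, R, t], x ∈ normalizer (clos [a, b] : Set G) := clos_le.1 hK
  generalize hk : [s, S, r, R, t] = l at k2 hL hK hs hm
  generalize hc' : a * (a * b) = c at h4 hL
  have h5 := (h2.term (a * (a * b)) (a := _) (Nat.beq_refl _)).cons h2
  rw [hc'] at h5
  generalize clos [a, b] = P at h3 p2 hL hS hK hm
  obtain ⟨oa, oc, bT, abT, q1, q2, q3, q4, q5, q6⟩ : orderOf a = 5 ∧ orderOf c = 5 ∧ b ∈ cls l a ∧ a * b ∈ cls l a ∧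
      (∀ y ∈ cls l a, y ∈ P) ∧ (∀ y ∈ cls l c, y ∈ P) ∧ (∀ y ∈ P, y = 1 ∨ y ∈ cls l a ∨ y ∈ cls l c) ∧
      (∀ y ∈ cls l a, a * y ∈ cls l a → a * (a * y) ∈ cls l c → ∃ m ∈ clos l, m * a = a * m ∧ m * b = y * m) ∧
      (∀ k ∈ clos l, k ∈ P → k = 1) ∧ c ^ 1 ∈ cls l c ∧ c ^ 2 ∈ cls l c ∧ c ^ 3 ∈ cls l c ∧ c ^ 4 ∈ cls l c :=
    hL.decide h5 (by decide +kernel)
  have a1 : a ≠ 1 := fun h => by simp [h] at oa
  have c1 : c ≠ 1 := fun h => by simp [h] at oc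
  have hN : normalizer (P : Set G) ≤ clos l ⊔ P := fun g hg => by
    obtain ⟨k, hk, e1⟩ := (two_sets h4 a1 c1 q1 q2 q3 hg).1 a (self_mem_cls _ _)
    obtain ⟨hT, hU⟩ := two_sets h4 a1 c1 q1 q2 q3 (mul_mem (inv_mem (hK hk)) hg)
    have e2 : MulAut.conj (k⁻¹ * g) a = a := by rw [map_mul, MulAut.mul_apply, ← e1, MulAut.conj_apply]; group
    obtain ⟨m, hm, e3, e4⟩ := q4 _ (hT b bT) (by simpa only [map_mul (MulAut.conj (k⁻¹ * g)), e2] using hT _ abT)
      (by simpa only [← hc', map_mul (MulAut.conj (k⁻¹ * g)), e2] using hU _ (self_mem_cls _ _))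
    rw [MulAut.conj_apply] at e2 e4
    have h6 := h3 _ (comm_of_same e2 e3) (comm_of_same rfl e4)
    rw [show g = k * m * (m⁻¹ * (k⁻¹ * g)) by group]
    exact mul_mem (mem_sup_left (mul_mem hk hm)) (mem_sup_right h6)
  obtain ⟨l', b1, b2, b3, -⟩ := quot_letters (P := P) hm
  obtain ⟨x, y, z, m1, m2⟩ := model5
  replace b3 := b3 le_normalizer hN
  obtain ⟨φ⟩ := equiv_of_card pres5 m1 (b2 _ fun w hw => by rw [hs w hw]; exact one_mem _) rfl (by rw [b1, ← hk]; rfl)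
    (eq_top_iff.2 fun u _ => by
      obtain ⟨i, j, k, rfl⟩ := m2 u
      exact mul_mem (mul_mem (pow_mem (mem_clos (by simp)) _) (pow_mem (mem_clos (by simp)) _))
        (pow_mem (mem_clos (by simp)) _))
    (by rw [Nat.card_eq_fintype_card]; decide +kernel) (by norm_num) (by rw [b3, card_top, ← k2]; exact card_le_quot hK q5)
  replace φ := (topEquiv.symm.trans (MulEquiv.subgroupCongr b3.symm)).trans φ
  have ca : Nat.card (zpowers a) = 5 := by rw [Nat.card_zpowers, oa]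
  have cc : Nat.card (zpowers c) = 5 := by rw [Nat.card_zpowers, oc]
  refine ⟨⟨_, _, ca, cc, fun g hg => ?_, fun C hC => ?_⟩, p2, ?_, ⟨φ⟩⟩
  · classical
    obtain ⟨k, h6, h7⟩ := Finset.mem_image.1 (mem_zpowers_iff_mem_range_orderOf.1 (hg.le ⟨a, mem_zpowers a, rfl⟩))
    rw [oc, Finset.mem_range] at h6
    have h8 : IsConj a (c ^ k) := isConj_iff.2 ⟨g, h7.symm⟩
    have h9 : c ^ k ∉ cls l c := fun h => h4 (h8.trans (isConj_of_mem_cls h).symm)
    interval_cases k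
    · exact a1 (isConj_one_left.1 (pow_zero c ▸ h8))
    all_goals tauto
  · obtain ⟨⟨w, hw⟩, ow⟩ := exists_prime_orderOf_dvd_card' (G := C) 5 hC.symm.dvd
    rw [orderOf_mk] at ow
    have w1 : w ≠ 1 := fun h => by simp [h] at ow
    obtain ⟨g, -, hg⟩ := exists_conj_mem_syl hS (mem_top w) (k := 1) (by rw [pow_one, ← ow, pow_orderOf_eq_one])
    rcases q3 _ hg with h6 | ⟨k, -, h6⟩ | ⟨k, -, h6⟩
    · exact absurd (conj_eq_one.1 h6) w1
    all_goals have h7 : k⁻¹ * g * w * (k⁻¹ * g)⁻¹ = k⁻¹ * (g * w * g⁻¹) * k := by group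
    · exact ⟨k⁻¹ * g, Or.inl (Syl.map_conj_eq hC ca hw w1 (by rw [h7, ← h6]; group; exact mem_zpowers a))⟩
    · exact ⟨k⁻¹ * g, Or.inr (Syl.map_conj_eq hC cc hw w1 (by rw [h7, ← h6]; group; exact mem_zpowers c))⟩
  · rw [card_eq_card_quotient_mul_card_subgroup (P.subgroupOf _), Nat.card_congr φ.toEquiv,
      Nat.card_congr (subgroupOfEquivOfLe le_normalizer).toEquiv, p2, Nat.card_eq_fintype_card]
    decide +kernel

end Cfsg.Agent.SuzL
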